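import Cfsg.Agent.C3R.Std
import Cfsg.Agent.AutCl.Inst
import Cfsg.Agent.Solv.Core

/-! A standard subgroup `2·Sp₆(2)` is the centraliser of its central involution. -/

set_option autoImplicit false
set_option linter.unusedSectionVars false

namespace Cfsg.Agent.C3R

open Cfsg.Agent.Comp Cfsg.Agent.Known Cfsg.Agent.BG Cfsg.Agent.Rec Cfsg.Agent.Spor Cfsg.Agent.AutCl

theorem out_sp (β : MulAut (PSp 3 (ZMod 2))) : ∃ x, β = MulAut.conj x := by
  obtain ⟨⟨n, κ, hn⟩, rfl⟩ := clSp_surj (p := 2) (m := 3) (by decide) (by decide) β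
  have h1 : n = SemidirectProduct.inl n.left := SemidirectProduct.ext rfl (RingEquiv.ext fun x => by
    rcases (show ∀ x : ZMod 2, x = 0 ∨ x = 1 by decide) x with rfl | rfl <;> simp)
  obtain rfl : κ = 1 := ((show ∀ x : ZMod 2, x = 0 ∨ x = 1 by decide) κ).resolve_left hn.ne
  obtain ⟨s, hs⟩ := (range_jSp 3).ge (isom_of_semi (g := n.left) (h1 ▸ hn))
  refine ⟨_, (congrArg _ (Subtype.ext ?_)).trans ((clSp (by decide)).theta_inl s)⟩
  exact h1.trans (congrArg _ ((Geom.glEquiv _ _).injective hs).symm)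

theorem out_cover {L : Type*} [Group L] (hp : Group.IsPerfect L) (e : L ⧸ Subgroup.center L ≃* PSp 3 (ZMod 2)) (α : MulAut L) :
    ∃ l, ∀ x, α x = l * x * l⁻¹ := by
  obtain ⟨x, hx⟩ := out_sp ((e.symm.trans (quotAut1 α)).trans e)
  obtain ⟨x, rfl⟩ := e.surjective x
  obtain ⟨l, rfl⟩ := QuotientGroup.mk_surjective x
  refine ⟨l, fun x => DFunLike.congr_fun (Schur.lift_unique_of_perfect hp (ξ := QuotientGroup.mk' _) (QuotientGroup.ker_mk' _).le
    (φ := α.toMonoidHom) (ψ := (MulAut.conj l).toMonoidHom) (MonoidHom.ext fun x => e.injective ?_)) x⟩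
  simpa using DFunLike.congr_fun hx (e x)

theorem two_of_core {X : Type*} [Group X] [Finite X] {z : X} (hc : ∀ x, Commute x z) (hz : z * z = 1)
    (H : ∀ t, t * t = 1 ∨ t * t = z → t = 1 ∨ t = z) (hO : pPrimeCore 2 X = ⊥) (x : X) : x = 1 ∨ x = z := by
  have hN : (Subgroup.zpowers z).Normal := Schur.normal_of_le_center (Subgroup.zpowers_le.2 (Subgroup.mem_center_iff.2 fun x => (hc x).eq))
  have h1 : (Subgroup.zpowers z).index.Coprime 2 := (Nat.Prime.coprime_iff_not_dvd Nat.prime_two).2 (fun h => by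
    obtain ⟨t, ht⟩ := exists_prime_orderOf_dvd_card' (G := X ⧸ Subgroup.zpowers z) 2 h
    obtain ⟨t, rfl⟩ := QuotientGroup.mk_surjective t
    exact Invol.ne_one_of ht ((QuotientGroup.eq_one_iff _).2 ((Invol.mem_zpowers_invol hz).2 (H t ((Invol.mem_zpowers_invol hz).1
      ((QuotientGroup.eq_one_iff _).1 (Invol.mul_self_of ht))))))) |>.symm
  obtain ⟨M, hM⟩ := Subgroup.exists_right_complement'_of_coprime (N := Subgroup.zpowers z) (h1.symm.coprime_dvd_left (by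
    rw [Nat.card_zpowers]; exact orderOf_dvd_of_pow_eq_one (by rwa [sq])))
  have : M.Normal := ⟨fun m hm g => by
    obtain ⟨⟨⟨c, hc'⟩, k⟩, rfl⟩ := hM.2 g
    have := mul_mem (mul_mem k.2 hm) (inv_mem k.2)
    rcases (Invol.mem_zpowers_invol hz).1 hc' with rfl | rfl
    · simpa using this
    · rwa [← mul_inv_eq_iff_eq_mul.2 (hc (k * m * (k : X)⁻¹)).symm.eq, show c * (k * m * (k : X)⁻¹) * c⁻¹ = c * k * m * (c * k)⁻¹ by group] at this⟩
  have h2 : M = ⊥ := eq_bot_iff.2 (hO ▸ Solv.le_pPrimeCore (hM.symm.index_eq_card ▸ h1))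
  exact (Invol.mem_zpowers_invol hz).1 ((Subgroup.isComplement'_bot_right.1 (h2 ▸ hM)).ge (Subgroup.mem_top x))

theorem cover_of {L K : Type*} [Group L] [Group K] (hp : Group.IsPerfect L) (h2 : Nat.card (Subgroup.center L) = 2)
    (e : L ⧸ Subgroup.center L ≃* K) : IsNonsplitDoubleCover L K := ⟨h2, ⟨e⟩, fun M hM => by
  have : M = ⊤ := top_le_iff.1 (hp.commutator_eq_top.ge.trans (Subgroup.commutator_le.2 fun a _ b _ => by
    obtain ⟨⟨c, k⟩, rfl⟩ := hM.2 a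
    obtain ⟨⟨d, m⟩, rfl⟩ := hM.2 b
    have := mul_mem (mul_mem (mul_mem k.2 m.2) (inv_mem k.2)) (inv_mem m.2)
    convert this using 1
    have h1 := Subgroup.mem_center_iff.1 c.2
    have h2 := Subgroup.mem_center_iff.1 d.2
    simp only [commutatorElement_def]
    generalize (c : L) = c, (d : L) = d, (k : L) = k, (m : L) = m at *
    calc _ = c * (k * (d * m) * k⁻¹) * c⁻¹ * m⁻¹ * d⁻¹ := by group
      _ = k * d * (m * k⁻¹ * m⁻¹) * d⁻¹ := by rw [← h1]; group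
      _ = _ := by rw [h2, mul_assoc d, ← h2]; group))
  subst this
  rw [Subgroup.isComplement'_top_right.1 hM] at h2
  simp at h2⟩

theorem One.conj {G L : Type*} [Group G] [Group L] {z : L} {ι : L →* G} (o : One z ι) (g : G) :
    One z ((MulAut.conj g).toMonoidHom.comp ι) ∧ ∀ q, q ∈ Qs ((MulAut.conj g).toMonoidHom.comp ι) ↔ g⁻¹ * q * g⁻¹⁻¹ ∈ Qs ι := by
  have k : ∀ a b : G, Commute (g * a * g⁻¹) b ↔ Commute a (g⁻¹ * b * g⁻¹⁻¹) := fun a b =>
    ⟨fun c => by simpa [mul_assoc] using c.conj g⁻¹, fun c => by simpa [mul_assoc] using c.conj g⟩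
  have m : ∀ q, q ∈ Qs ((MulAut.conj g).toMonoidHom.comp ι) ↔ g⁻¹ * q * g⁻¹⁻¹ ∈ Qs ι := fun q => by
    rw [mem_Qs, mem_Qs]; exact forall_congr' fun x => k _ _
  refine ⟨⟨(MulAut.conj g).injective.comp o.inj, o.cz, o.cen, o.ord, fun h c => ?_, fun i hi h2 h c => ?_, ?_⟩, m⟩
  · obtain ⟨l, q, hq, e⟩ := o.dec _ ((k _ _).1 c.symm).symm
    exact ⟨l, g * q * g⁻¹, (m _).2 (by simpa [mul_assoc]), by simp [mul_assoc, ← mul_assoc (ι l), ← e]⟩
  · exact ((k _ _).2 (o.ti _ ((m _).1 hi) ((BG.orderOf_conj' ..).trans h2) _ (c.conj _)).symm).symm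
  · obtain ⟨t, h1, h2, h3, h4⟩ := o.big
    exact ⟨g * t * g⁻¹, (m _).2 (by simpa [mul_assoc]), by simpa, by simpa, by simpa [conj_mul] using h4⟩

theorem std_eq {G : Type*} [Group G] [Finite G] (hO : pPrimeCore 2 G = ⊥) (hZ : Subgroup.center G = ⊥)
    (hbal : ∀ t : G, orderOf t = 2 → centralizerPPrimeCore 2 t = ⊥) {L : Subgroup G} (hL : IsStandardSubgroup L)
    (h2 : Nat.card (Subgroup.center L) = 2) (e : L ⧸ Subgroup.center L ≃* PSp 3 (ZMod 2)) :
    ∃ t : G, orderOf t = 2 ∧ IsNonsplitDoubleCover C1[t] (Matrix.symplecticGroup (Fin 3) (ZMod 2)) := by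
  obtain ⟨⟨hp, -⟩, ⟨-, h1⟩, -, h3⟩ := hL
  obtain ⟨g⟩ := quot_center_equiv' (G := Matrix.symplecticGroup (Fin 3) (ZMod 2))
    ((Classical.card_center_sp (by decide)).trans (by simp))
  have hc := cover_of hp h2 (e.trans g)
  obtain ⟨⟨z, hz⟩, ho⟩ := exists_prime_orderOf_dvd_card' (G := Subgroup.center L) 2 h2.symm.dvd
  have ho : orderOf z = 2 := (Subgroup.orderOf_mk ..).symm.trans ho
  have cz : ∀ x, Commute x z := Subgroup.mem_center_iff.1 hz
  have ct : C1[z] = ⊤ := eq_top_iff.2 fun x _ => Subgroup.mem_centralizer_singleton_iff.2 (cz x)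
  obtain ⟨y, h, rfl⟩ := exists_st ho (nonsplit_congr hc (Subgroup.topEquiv.symm.trans (MulEquiv.subgroupCongr ct.symm)) (.refl _))
  have hQ : Qs L.subtype = Subgroup.centralizer (L : Set G) := by simp [Qs]
  have oz : orderOf (y 14 : G) = 2 := (Subgroup.orderOf_coe _).trans ho
  have zQ : (y 14 : G) ∈ Qs L.subtype := mem_Qs.2 fun x => (cz x).map _
  have ti : ∀ g : G, ∀ i ∈ Qs L.subtype, g⁻¹ * i * g⁻¹⁻¹ ∈ Qs L.subtype → orderOf i = 2 →
      ∃ l, ∃ q ∈ Qs L.subtype, g = L.subtype l * q := fun g i a b c => by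
    have hg : g ∈ N[L] := by
      rw [h3]
      by_contra hn
      exact (h1 g hn).not_two_dvd_nat (c ▸ Subgroup.orderOf_dvd_natCard _ ⟨hQ ▸ a, _, hQ ▸ b, by simp [mul_assoc]⟩)
    obtain ⟨l, hl⟩ := out_cover hp e (L.normalizerMonoidHom ⟨g, hg⟩)
    refine ⟨l, (l : G)⁻¹ * g, mem_Qs.2 fun x => ?_, by simp⟩
    have : g * x * g⁻¹ = l * x * (l : G)⁻¹ := congrArg Subtype.val (hl x)
    exact (mul_inv_eq_iff_eq_mul.1 (show (l : G)⁻¹ * g * x * ((l : G)⁻¹ * g)⁻¹ = x by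
      exact (show _ = (l : G)⁻¹ * (g * x * g⁻¹) * l by group).trans (by rw [this]; group))).symm
  have ti' : ∀ g : G, ∀ i ∈ Qs L.subtype, g⁻¹ * i * g⁻¹⁻¹ ∈ Qs L.subtype → orderOf i = 2 → Commute g (y 14) := fun g i a b c => by
    obtain ⟨l, q, hq, rfl⟩ := ti g i a b c
    exact ((cz l).map _).mul_left (mem_Qs.1 hq _).symm
  have fx : ∀ {g i : G}, Commute g i → g⁻¹ * i * g⁻¹⁻¹ = i := fun c => mul_inv_eq_iff_eq_mul.2 c.inv_left.eq
  have dec : ∀ g, Commute g (y 14 : G) → ∃ l, ∃ q ∈ Qs L.subtype, g = L.subtype l * q := fun g c => ti g _ zQ (by rwa [fx c]) oz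
  have big : ∀ t ∈ Qs L.subtype, t * t = 1 ∨ t * t = y 14 → t = 1 ∨ t = y 14 := by
    by_contra! H
    obtain ⟨t, a, b, c, d⟩ := H
    have o : One (y 14) L.subtype := ⟨Subtype.val_injective, cz, fun x => h.cen cz, ho, dec,
      fun i hi h2 g c => ti' g i hi (by rwa [fx c]) h2, t, a, c, d, b⟩
    obtain ⟨g, h1, h2⟩ : ∃ g : G, Commute (y 14 : G) (g * y 14 * g⁻¹) ∧ g * y 14 * g⁻¹ ≠ y 14 := by
      by_contra! H
      exact Invol.ne_one_of oz (by simpa [hZ] using Block.zstar_center ⟨oz, H⟩ hO)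
    exact Two.false h ⟨o, (o.conj g).1, h1, fun i a b c => h2 (mul_inv_eq_iff_eq_mul.2 (ti' g i a (((o.conj g).2 i).1 b) c).eq)⟩
  have hle : Qs L.subtype ≤ C1[(y 14 : G)] := fun q hq => Subgroup.mem_centralizer_singleton_iff.2 (mem_Qs.1 hq _).symm.eq
  have hn : ((Qs L.subtype).subgroupOf C1[(y 14 : G)]).Normal := ⟨fun q hq g => by
    obtain ⟨l, r, hr, e⟩ := dec g (Subgroup.mem_centralizer_singleton_iff.1 g.2)
    have := mul_mem (mul_mem hr hq) (inv_mem hr)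
    rw [← mul_inv_eq_iff_eq_mul.2 (mem_Qs.1 this l).eq] at this
    rw [Subgroup.mem_subgroupOf]
    convert this using 1
    simp [e, mul_assoc]⟩
  have h4 := Solv.map_subtype_pPrimeCore_le_of_isSubnormal (p := 2) hn.isSubnormal
  rw [(Subgroup.map_eq_bot_iff_of_injective _ Subtype.val_injective).1 (hbal _ oz), le_bot_iff,
    Subgroup.map_eq_bot_iff_of_injective _ Subtype.val_injective] at h4
  have h5 := two_of_core (X := (Qs L.subtype).subgroupOf C1[(y 14 : G)]) (z := ⟨⟨_, hle zQ⟩, zQ⟩) (fun x => Subtype.ext (Subtype.ext (mem_Qs.1 x.2 _).symm.eq))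
    (Subtype.ext (Subtype.ext (Invol.mul_self_of oz))) (fun t ht => (big _ t.2 (ht.imp (fun e => congrArg Subtype.val (congrArg Subtype.val e))
      fun e => congrArg Subtype.val (congrArg Subtype.val e))).imp
      (fun e => Subtype.ext (Subtype.ext e)) fun e => Subtype.ext (Subtype.ext e)) h4
  have h6 : L = C1[(y 14 : G)] := le_antisymm (fun l hl => Subgroup.mem_centralizer_singleton_iff.2 ((cz ⟨l, hl⟩).map L.subtype).eq)
    fun g hg => by
      obtain ⟨l, q, hq, rfl⟩ := dec g (Subgroup.mem_centralizer_singleton_iff.1 hg)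
      refine mul_mem l.2 ?_
      rcases h5 ⟨⟨q, hle hq⟩, hq⟩ with e | e <;> rw [show q = _ from congrArg (fun x => x.1.1) e]
      exacts [one_mem _, (y 14).2]
  exact ⟨_, oz, nonsplit_congr hc (MulEquiv.subgroupCongr h6) (.refl _)⟩

end Cfsg.Agent.C3R
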